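import Cfsg.Agent.H672.Four.Interface

/-!
# `FactColour` (helper334, task 2425 for S4773): reduction to primitive groups
-/

set_option autoImplicit false

universe u v

namespace Cfsg.Agent.H334.Four.Colour

open Cfsg.Agent.H672.Four MulAction

/-- There is an element of `p`-power order moving a point. -/
def Mv (p : ℕ) (G : Type u) (Ω : Type v) [Group G] [MulAction G Ω] : Prop :=
  ∃ g : G, (∃ k : ℕ, g ^ p ^ k = 1) ∧ ∃ ω : Ω, g • ω ≠ ω

/-- A normal subgroup containing all `p`-elements has index prime to `p`. -/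
theorem not_dvd_index {G : Type u} [Group G] [Finite G] {p : ℕ} (hp : p.Prime) {N : Subgroup G}
    (h : ∀ g : G, (∃ k : ℕ, g ^ p ^ k = 1) → g ∈ N) : ¬ p ∣ N.index := by
  have := Fact.mk hp
  obtain ⟨P⟩ : Nonempty (Sylow p G) := inferInstance
  have hle : (P : Subgroup G) ≤ N := by
    intro g hg
    apply h
    obtain ⟨k, hk⟩ := P.2 ⟨g, hg⟩
    exact ⟨k, congrArg Subtype.val hk⟩
  intro hd
  exact P.not_dvd_index (hd.trans (Subgroup.index_dvd_of_le hle))

theorem mv_iff {G : Type u} {Ω : Type v} [Group G] [Finite G] [Finite Ω] [MulAction G Ω] {p : ℕ} (hp : p.Prime) :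
    Mv p G Ω ↔ p ∣ Nat.card (toPermHom G Ω).range := by
  constructor
  · rintro ⟨g, ⟨k, hk⟩, ω, hω⟩
    have h1 : orderOf (toPermHom G Ω g) ∣ p ^ k := by
      apply orderOf_dvd_of_pow_eq_one
      rw [← map_pow, hk, map_one]
    obtain ⟨j, -, hj⟩ := (Nat.dvd_prime_pow hp).1 h1
    have hj0 : j ≠ 0 := by
      rintro rfl
      rw [pow_zero, orderOf_eq_one_iff] at hj
      exact hω (DFunLike.congr_fun hj ω)
    have h2 : orderOf (toPermHom G Ω g) ∣ Nat.card (toPermHom G Ω).range :=
      Subgroup.orderOf_dvd_natCard _ ⟨g, rfl⟩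
    rw [hj] at h2
    exact (dvd_pow_self p hj0).trans h2
  · intro hd
    by_contra hno
    have h1 := not_dvd_index (N := (toPermHom G Ω).ker) hp (by
      intro g hg
      rw [MonoidHom.mem_ker]
      ext ω
      by_contra hne
      exact hno ⟨g, hg, ω, hne⟩)
    rw [Subgroup.index_ker] at h1
    exact h1 hd

/-- The primitive case. -/
def Prim (p : ℕ) : Prop := ∀ (G : Type u) (Ω : Type u) [Group G] [Finite G] [Finite Ω] [MulAction G Ω],
  IsPreprimitive G Ω → Mv p G Ω → ∃ c : Ω → Fin 3, p ∣ (stabC (G := G) c).index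

theorem trans_step {p : ℕ} (hp : p.Prime) (hprim : Prim.{u} p) (n : ℕ) : ∀ (G : Type u) [Group G] [Finite G]
    (H : Subgroup G), H.index ≤ n → Mv p G (G ⧸ H) → ∃ c : G ⧸ H → Fin 3, p ∣ (stabC (G := G) c).index := by
  classical
  induction n with
  | zero =>
    intro G _ _ H hn
    exact absurd (Nat.le_zero.1 hn) H.index_ne_zero_of_finite
  | succ n ih =>
    intro G _ _ H hn hmv
    obtain ⟨g, hg, x, hx⟩ := hmv
    have hnt : Nontrivial (G ⧸ H) := ⟨⟨_, _, hx⟩⟩
    by_cases hco : IsCoatom H
    · have hst : stabilizer G ((1 : G) : G ⧸ H) = H := stabilizer_quotient H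
      have hP : IsPreprimitive G (G ⧸ H) :=
        (isCoatom_stabilizer_iff_preprimitive G ((1 : G) : G ⧸ H)).1 (hst.symm ▸ hco)
      exact hprim G (G ⧸ H) hP ⟨g, hg, x, hx⟩
    have hHt : H ≠ ⊤ := by
      rintro rfl
      apply hx
      induction x using QuotientGroup.induction_on with
      | H y => exact QuotientGroup.eq.2 (Subgroup.mem_top _)
    obtain ⟨L, hHL, hLt⟩ : ∃ L : Subgroup G, H < L ∧ L ≠ ⊤ := by
      by_contra hno
      push Not at hno
      exact hco ⟨hHt, hno⟩
    have hmulidx := Subgroup.relIndex_mul_index hHL.le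
    have hL1 : L.index ≠ 1 := fun h => hLt (Subgroup.index_eq_one.1 h)
    have hL0 : L.index ≠ 0 := L.index_ne_zero_of_finite
    have hR1 : H.relIndex L ≠ 1 := fun h => hHL.not_ge (Subgroup.relIndex_eq_one.1 h)
    have hR0 : H.relIndex L ≠ 0 := by
      intro h
      rw [h, zero_mul] at hmulidx
      exact H.index_ne_zero_of_finite hmulidx.symm
    have hi1 : L.index < H.index := by
      rw [← hmulidx]
      have h2 : 2 ≤ H.relIndex L := by omega
      nlinarith [Nat.pos_of_ne_zero hL0]
    have hi2 : H.relIndex L < H.index := by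
      rw [← hmulidx]
      have h2 : 2 ≤ L.index := by omega
      nlinarith [Nat.pos_of_ne_zero hR0]
    by_cases hmL : Mv p G (G ⧸ L)
    · obtain ⟨c', hc'⟩ := ih G L (by omega) hmL
      refine ⟨fun x => c' (Subgroup.quotientMapOfLE hHL.le x), ?_⟩
      have heq : stabC (G := G) (fun x : G ⧸ H => c' (Subgroup.quotientMapOfLE hHL.le x)) = stabC (G := G) c' := by
        ext a
        constructor
        · intro ha y
          induction y using QuotientGroup.induction_on with
          | H y => exact ha (y : G ⧸ H)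
        · intro ha y
          induction y using QuotientGroup.induction_on with
          | H y => exact ha (y : G ⧸ L)
      rw [heq]
      exact hc'
    -- all `p`-elements are in the core of `L`
    have hcore : ∀ a : G, (∃ k : ℕ, a ^ p ^ k = 1) → a ∈ L.normalCore := by
      intro a ha b
      by_contra hno
      apply hmL
      refine ⟨b * a * b⁻¹, ?_, ((1 : G) : G ⧸ L), ?_⟩
      · obtain ⟨k, hk⟩ := ha
        exact ⟨k, by rw [conj_pow, hk, mul_one, mul_inv_cancel]⟩
      · intro h
        apply hno
        have h1 : ((b * a * b⁻¹ * 1 : G) : G ⧸ L) = ((1 : G) : G ⧸ L) := h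
        rw [mul_one] at h1
        have h2 := QuotientGroup.eq.1 h1.symm
        rwa [inv_one, one_mul] at h2
    have hcoreL : L.normalCore ≤ L := L.normalCore_le
    induction x using QuotientGroup.induction_on with
    | H y =>
      have hmvL : Mv p L (L ⧸ H.subgroupOf L) := by
        have hg' : ∃ k : ℕ, (y⁻¹ * g * y) ^ p ^ k = 1 := by
          obtain ⟨k, hk⟩ := hg
          refine ⟨k, ?_⟩
          have h1 : y⁻¹ * g * y = y⁻¹ * g * (y⁻¹)⁻¹ := by rw [inv_inv]
          rw [h1, conj_pow, hk, mul_one, mul_inv_cancel]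
        have hgL : y⁻¹ * g * y ∈ L := hcoreL (hcore _ hg')
        refine ⟨⟨y⁻¹ * g * y, hgL⟩, ?_, ((1 : L) : L ⧸ H.subgroupOf L), ?_⟩
        · obtain ⟨k, hk⟩ := hg'
          exact ⟨k, Subtype.ext hk⟩
        · intro h
          apply hx
          have h1 : ((⟨y⁻¹ * g * y, hgL⟩ * 1 : L) : L ⧸ H.subgroupOf L) = ((1 : L) : L ⧸ H.subgroupOf L) := h
          rw [mul_one] at h1
          have h2 := QuotientGroup.eq.1 h1.symm
          rw [inv_one, one_mul, Subgroup.mem_subgroupOf] at h2
          have h3 : y⁻¹ * g * y ∈ H := h2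
          show ((g * y : G) : G ⧸ H) = (y : G ⧸ H)
          refine (QuotientGroup.eq.2 ?_).symm
          rwa [← mul_assoc]
      obtain ⟨c', hc'⟩ := ih L (H.subgroupOf L) (by
        have : (H.subgroupOf L).index = H.relIndex L := rfl
        omega) hmvL
      -- the inclusion of the block
      let j : L ⧸ H.subgroupOf L → G ⧸ H := Quotient.map' (fun l : L => (l : G)) (by
        intro a b hab
        rw [QuotientGroup.leftRel_apply] at hab ⊢
        exact hab)
      have hj : ∀ l : L, j (l : L ⧸ H.subgroupOf L) = ((l : G) : G ⧸ H) := fun _ => rfl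
      have hjinj : Function.Injective j := by
        intro a b
        induction a using QuotientGroup.induction_on with
        | H a =>
          induction b using QuotientGroup.induction_on with
          | H b =>
            intro hab
            rw [hj, hj] at hab
            have h1 : (a : G)⁻¹ * (b : G) ∈ H := QuotientGroup.eq.1 hab
            exact QuotientGroup.eq.2 h1
      have hjsmul : ∀ (l : L) (z : L ⧸ H.subgroupOf L), j (l • z) = (l : G) • j z := by
        intro l z
        induction z using QuotientGroup.induction_on with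
        | H z => rfl
      let c : G ⧸ H → Fin 3 := fun x => if h : ∃ z, j z = x then c' h.choose else 0
      have hcj : ∀ z, c (j z) = c' z := by
        intro z
        have h : ∃ z', j z' = j z := ⟨z, rfl⟩
        show (if h : ∃ z', j z' = j z then c' h.choose else 0) = c' z
        rw [dif_pos h]
        exact congrArg c' (hjinj h.choose_spec)
      refine ⟨c, ?_⟩
      by_contra hnd
      set D := stabC (G := G) c with hD
      have hle : D ⊓ L.normalCore ≤ (stabC (G := L) c').map L.subtype := by
        rintro a ⟨ha, haN⟩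
        refine ⟨⟨a, hcoreL haN⟩, ?_, rfl⟩
        intro z
        have h1 := ha (j z)
        rw [← hcj, ← hcj, hjsmul]
        exact h1
      have h1 : p ∣ ((stabC (G := L) c').map L.subtype).index := by
        rw [Subgroup.index_map_subtype]
        exact hc'.mul_right _
      have h2 := h1.trans (Subgroup.index_dvd_of_le hle)
      have h3 : (D ⊓ L.normalCore).index = L.normalCore.relIndex D * D.index := by
        rw [← Subgroup.relIndex_mul_index (inf_le_left : D ⊓ L.normalCore ≤ D), Subgroup.inf_relIndex_left]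
      rw [h3] at h2
      rcases (Nat.Prime.dvd_mul hp).1 h2 with h4 | h4
      · exact not_dvd_index hp hcore (h4.trans (Subgroup.relIndex_dvd_index_of_normal _ _))
      · exact hnd h4

/-- **Reduction of `FactColour` to primitive groups.** -/
theorem factColour_of_prim (hprim : ∀ p : ℕ, p.Prime → p ≠ 2 → Prim.{u} p) : FactColour.{u, v} := by
  classical
  intro G Ω _ _ _ _ p hp hp2 hd
  obtain ⟨g, hg, ω, hω⟩ := (mv_iff hp).2 hd
  have hmv : Mv p G (G ⧸ stabilizer G ω) := by
    refine ⟨g, hg, ((1 : G) : G ⧸ stabilizer G ω), ?_⟩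
    intro h
    have h1 : ((g * 1 : G) : G ⧸ stabilizer G ω) = ((1 : G) : G ⧸ stabilizer G ω) := h
    rw [mul_one] at h1
    have h2 := QuotientGroup.eq.1 h1.symm
    rw [inv_one, one_mul] at h2
    exact hω h2
  obtain ⟨c', hc'⟩ := trans_step hp (hprim p hp hp2) _ G (stabilizer G ω) le_rfl hmv
  let c : Ω → Fin 3 := fun ω' => if h : ∃ x, ofQuotientStabilizer G ω x = ω' then c' h.choose else 0
  have hcj : ∀ z, c (ofQuotientStabilizer G ω z) = c' z := by
    intro z
    have h : ∃ z', ofQuotientStabilizer G ω z' = ofQuotientStabilizer G ω z := ⟨z, rfl⟩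
    show (if h : ∃ z', ofQuotientStabilizer G ω z' = ofQuotientStabilizer G ω z then c' h.choose else 0) = c' z
    rw [dif_pos h]
    exact congrArg c' (injective_ofQuotientStabilizer G ω h.choose_spec)
  refine ⟨c, ?_, ω, ?_⟩
  · refine hc'.trans (Subgroup.index_dvd_of_le ?_)
    intro a ha z
    rw [← hcj, ← hcj, ofQuotientStabilizer_smul]
    exact ha _
  · intro ω' hω'
    have hno : ¬ ∃ x, ofQuotientStabilizer G ω x = ω' := by
      rintro ⟨x, rfl⟩
      exact hω' (ofQuotientStabilizer_mem_orbit G ω x)
    show (if h : ∃ x, ofQuotientStabilizer G ω x = ω' then c' h.choose else 0) = 0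
    rw [dif_neg hno]

end Cfsg.Agent.H334.Four.Colour
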