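import Cfsg.Agent.H334.Four.Colour

/-!
# `FactColour` (helper334, task 2425 for S4773): the primitive case
-/

set_option autoImplicit false

universe u v

namespace Cfsg.Agent.H334.Four.Colour

open Cfsg.Agent.H672.Four MulAction

variable {n : ℕ}

/-- The colouring with `a` points of colour 0 and `b` points of colour 1. -/
def col (n a b : ℕ) (i : Fin n) : Fin 3 := if (i : ℕ) < a then 0 else if (i : ℕ) < a + b then 1 else 2

theorem card_col {n a b : ℕ} (h : a + b ≤ n) :
    Nat.card (stabC (G := Equiv.Perm (Fin n)) (col n a b)) = a.factorial * b.factorial * (n - a - b).factorial := by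
  classical
  have h1 : Nat.card (stabC (G := Equiv.Perm (Fin n)) (col n a b)) =
      Nat.card {g : Equiv.Perm (Fin n) // (col n a b) ∘ g = col n a b} := by
    refine Nat.card_congr (Equiv.subtypeEquivRight fun g => ?_)
    constructor
    · intro hg
      funext i
      exact hg i
    · intro hg i
      exact congrFun hg i
  have hc0 : Fintype.card {i : Fin n // col n a b i = 0} = a := by
    rw [Fintype.card_subtype]
    have h2 : (Finset.univ.filter fun i : Fin n => col n a b i = 0) = Finset.univ.filter fun i : Fin n => (i : ℕ) < a := by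
      ext i
      rw [Finset.mem_filter, Finset.mem_filter]
      simp only [Finset.mem_univ, true_and, col]
      split_ifs with h3 h4 <;> simp [h3]
    rw [h2, Fin.card_filter_val_lt]
    omega
  have hc1 : Fintype.card {i : Fin n // col n a b i = 1} = b := by
    rw [Fintype.card_subtype]
    have h2 : (Finset.univ.filter fun i : Fin n => col n a b i = 1) =
        (Finset.univ.filter fun i : Fin n => (i : ℕ) < a + b) \ (Finset.univ.filter fun i : Fin n => (i : ℕ) < a) := by
      ext i
      rw [Finset.mem_sdiff, Finset.mem_filter, Finset.mem_filter, Finset.mem_filter]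
      simp only [Finset.mem_univ, true_and, col]
      split_ifs with h3 h4 <;> simp <;> omega
    rw [h2, Finset.card_sdiff_of_subset, Fin.card_filter_val_lt, Fin.card_filter_val_lt]
    · omega
    · intro i
      simp only [Finset.mem_filter, Finset.mem_univ, true_and]
      omega
  have hc2 : Fintype.card {i : Fin n // col n a b i = 2} = n - a - b := by
    rw [Fintype.card_subtype]
    have h2 : (Finset.univ.filter fun i : Fin n => col n a b i = 2) =
        Finset.univ \ (Finset.univ.filter fun i : Fin n => (i : ℕ) < a + b) := by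
      ext i
      rw [Finset.mem_sdiff, Finset.mem_filter, Finset.mem_filter]
      simp only [Finset.mem_univ, true_and, col]
      split_ifs with h3 h4 <;> simp <;> omega
    rw [h2, Finset.card_sdiff_of_subset (Finset.filter_subset _ _), Fin.card_filter_val_lt, Finset.card_univ, Fintype.card_fin]
    omega
  rw [h1, Nat.card_eq_fintype_card, DomMulAct.stabilizer_card, Fin.prod_univ_three, hc0, hc1, hc2]

theorem index_col {n a b : ℕ} (h : a + b ≤ n) :
    (stabC (G := Equiv.Perm (Fin n)) (col n a b)).index = n.choose a * (n - a).choose b := by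
  have h1 := Subgroup.card_mul_index (stabC (G := Equiv.Perm (Fin n)) (col n a b))
  rw [card_col h, Nat.card_perm, Nat.card_eq_fintype_card, Fintype.card_fin] at h1
  have h2 := Nat.choose_mul_factorial_mul_factorial (show a ≤ n by omega)
  have h3 := Nat.choose_mul_factorial_mul_factorial (show b ≤ n - a by omega)
  have h4 : a.factorial * b.factorial * (n - a - b).factorial *
      (stabC (G := Equiv.Perm (Fin n)) (col n a b)).index =
      a.factorial * b.factorial * (n - a - b).factorial * (n.choose a * (n - a).choose b) := by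
    rw [h1, ← h2, ← h3]
    ring
  exact Nat.eq_of_mul_eq_mul_left (by positivity) h4

/-- For an odd prime `p ≤ n` some partition in three parts has a multinomial coefficient divisible by `p`. -/
theorem exists_col {n p : ℕ} (hp : p.Prime) (hp2 : p ≠ 2) (hpn : p ≤ n) :
    ∃ a b : ℕ, a + b ≤ n ∧ p ∣ n.choose a * (n - a).choose b := by
  have := Fact.mk hp
  have hp3 : 3 ≤ p := by
    have := hp.two_le
    omega
  have hlt := Nat.mod_lt n hp.pos
  by_cases h1 : n % p + 1 < p
  · refine ⟨n % p + 1, 0, by omega, Dvd.dvd.mul_right ?_ _⟩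
    have h2 := Choose.choose_modEq_choose_mod_mul_choose_div_nat (n := n) (k := n % p + 1) (p := p)
    rw [Nat.mod_eq_of_lt h1, Nat.choose_eq_zero_of_lt (Nat.lt_succ_self _), zero_mul] at h2
    exact (Nat.modEq_zero_iff_dvd).1 h2
  · have h2 : n % p = p - 1 := by omega
    have h3 : 2 * p - 1 ≤ n := by
      have h4 := Nat.div_add_mod n p
      have h5 : 1 ≤ n / p := (Nat.one_le_div_iff hp.pos).2 hpn
      have h6 : p ≤ p * (n / p) := Nat.le_mul_of_pos_right p h5
      omega
    refine ⟨p - 1, p - 1, by omega, Dvd.dvd.mul_left ?_ _⟩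
    have h4 : (n - (p - 1)) % p = 0 := by
      have h5 := Nat.div_add_mod n p
      have h6 : n - (p - 1) = p * (n / p) := by omega
      rw [h6, Nat.mul_mod_right]
    have h5 := Choose.choose_modEq_choose_mod_mul_choose_div_nat (n := n - (p - 1)) (k := p - 1) (p := p)
    rw [h4, Nat.mod_eq_of_lt (by omega : p - 1 < p), Nat.choose_eq_zero_of_lt (by omega : 0 < p - 1), zero_mul] at h5
    exact (Nat.modEq_zero_iff_dvd).1 h5

/-- Groups containing the alternating group. -/
theorem colour_alt {n p : ℕ} (hp : p.Prime) (hp2 : p ≠ 2) {H : Subgroup (Equiv.Perm (Fin n))}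
    (hd : p ∣ Nat.card H) (hA : alternatingGroup (Fin n) ≤ H) :
    ∃ c : Fin n → Fin 3, p ∣ (stabC (G := Equiv.Perm (Fin n)) c).relIndex H := by
  have hpn : p ≤ n := by
    have h1 := hd.trans (Subgroup.card_subgroup_dvd_card H)
    rw [Nat.card_perm, Nat.card_eq_fintype_card, Fintype.card_fin] at h1
    exact (Nat.Prime.dvd_factorial hp).1 h1
  obtain ⟨a, b, hab, hdiv⟩ := exists_col hp hp2 hpn
  refine ⟨col n a b, ?_⟩
  set Q := stabC (G := Equiv.Perm (Fin n)) (col n a b) with hQ
  have h1 : p ∣ Q.index := by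
    rw [index_col hab]
    exact hdiv
  have h2 : Q.relIndex H * H.index = (H ⊓ Q).index := by
    rw [← Subgroup.relIndex_mul_index (inf_le_left : H ⊓ Q ≤ H), Subgroup.inf_relIndex_left]
  have h3 : p ∣ Q.relIndex H * H.index := by
    rw [h2]
    exact h1.trans (Subgroup.index_dvd_of_le inf_le_right)
  rcases (Nat.Prime.dvd_mul hp).1 h3 with h | h
  · exact h
  · exfalso
    have h4 : (alternatingGroup (Fin n)).index ∣ 2 := by
      rcases subsingleton_or_nontrivial (Fin n) with hs | hs
      · rw [alternatingGroup.index_eq_one]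
        norm_num
      · rw [alternatingGroup.index_eq_two]
    have h5 := (h.trans (Subgroup.index_dvd_of_le hA)).trans h4
    exact hp2 ((Nat.prime_dvd_prime_iff_eq hp Nat.prime_two).1 h5)

theorem fix_of_three {g : Equiv.Perm (Fin 8)} (h3 : g ^ 3 = 1)
    (hg : ∀ i, col 8 1 2 (g i) = col 8 1 2 i) : g 0 = 0 ∧ g 1 = 1 ∧ g 2 = 2 := by
  have c0 : ∀ i : Fin 8, col 8 1 2 i = 0 → i = 0 := by decide
  have c1 : ∀ i : Fin 8, col 8 1 2 i = 1 → i = 1 ∨ i = 2 := by decide
  have h30 : ∀ i, g (g (g i)) = i := by
    intro i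
    have := DFunLike.congr_fun h3 i
    simpa [pow_succ, Equiv.Perm.mul_apply] using this
  have e0 := c0 _ ((hg 0).trans (by decide))
  have e1 := c1 _ ((hg 1).trans (by decide))
  have e2 := c1 _ ((hg 2).trans (by decide))
  refine ⟨e0, ?_⟩
  rcases e1 with e1 | e1
  · refine ⟨e1, ?_⟩
    rcases e2 with e2 | e2
    · exfalso
      have := g.injective (e1.trans e2.symm)
      exact absurd this (by decide)
    · exact e2
  · exfalso
    rcases e2 with e2 | e2
    · have := h30 1
      rw [e1, e2, e1] at this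
      exact absurd this (by decide)
    · have := g.injective (e1.trans e2.symm)
      exact absurd this (by decide)

theorem isThreeCycle {g : Equiv.Perm (Fin 8)} (h3 : orderOf g = 3)
    (hg : ∀ i, col 8 1 2 (g i) = col 8 1 2 i) : g.IsThreeCycle := by
  obtain ⟨h0, h1, h2⟩ := fix_of_three (h3 ▸ pow_orderOf_eq_one g) hg
  obtain ⟨m, hm⟩ := Equiv.Perm.cycleType_prime_order (σ := g) (h3 ▸ Nat.prime_three)
  have h5 := g.sum_cycleType
  rw [hm, h3, Multiset.sum_replicate, smul_eq_mul] at h5
  have h6 : g.support.card ≤ 5 := by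
    have h7 : g.support ⊆ (Finset.univ \ {0, 1, 2} : Finset (Fin 8)) := by
      intro i hi
      rw [Finset.mem_sdiff]
      refine ⟨Finset.mem_univ _, ?_⟩
      rw [Equiv.Perm.mem_support] at hi
      simp only [Finset.mem_insert, Finset.mem_singleton]
      rintro (rfl | rfl | rfl)
      · exact hi h0
      · exact hi h1
      · exact hi h2
    exact (Finset.card_le_card h7).trans (by decide)
  have hm0 : m = 0 := by omega
  rw [Equiv.Perm.IsThreeCycle, hm, hm0, h3]
  rfl

theorem colour_eight {H : Subgroup (Equiv.Perm (Fin 8))} (hprim : IsPreprimitive H (Fin 8)) (hd : 3 ∣ Nat.card H)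
    (hH : Nat.card H = 1344 ∨ Nat.card H = 168) :
    3 ∣ (stabC (G := Equiv.Perm (Fin 8)) (col 8 1 2)).relIndex H := by
  by_contra hno
  set Q := stabC (G := Equiv.Perm (Fin 8)) (col 8 1 2) with hQ
  have h1 : Nat.card (Q.subgroupOf H) * Q.relIndex H = Nat.card H := Subgroup.card_mul_index (Q.subgroupOf H)
  have h2 : 3 ∣ Nat.card (Q.subgroupOf H) := by
    rw [← h1] at hd
    rcases (Nat.Prime.dvd_mul Nat.prime_three).1 hd with h | h
    · exact h
    · exact absurd h hno
  have := Fact.mk Nat.prime_three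
  obtain ⟨x, hx⟩ := exists_prime_orderOf_dvd_card' 3 h2
  have hxo : orderOf ((x : H) : Equiv.Perm (Fin 8)) = 3 := by
    rw [Subgroup.orderOf_coe, Subgroup.orderOf_coe, hx]
  have hxQ : ((x : H) : Equiv.Perm (Fin 8)) ∈ Q := x.2
  have h3c := isThreeCycle hxo hxQ
  have hA := Equiv.Perm.alternatingGroup_le_of_isPreprimitive_of_isThreeCycle_mem hprim h3c (x : H).2
  have h4 := Subgroup.card_dvd_of_le hA
  have h5 : Nat.card (alternatingGroup (Fin 8)) = 20160 := by
    rw [nat_card_alternatingGroup]
    simp [Nat.factorial]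
  rw [h5] at h4
  have h6 := Nat.le_of_dvd Nat.card_pos h4
  omega

/-- The indicator colouring of a set. -/
theorem relIndex_ind {n : ℕ} (H : Subgroup (Equiv.Perm (Fin n))) (s : Set (Fin n)) [DecidablePred (· ∈ s)] :
    (stabC (G := Equiv.Perm (Fin n)) (fun i => if i ∈ s then (1 : Fin 3) else 0)).relIndex H =
      Nat.card {t : Set (Fin n) // ∃ h ∈ H, t = h '' s} := by
  let act : MulAction H (Set (Fin n)) :=
    { smul := fun h t => (h : Equiv.Perm (Fin n)) '' t
      one_smul := fun t => by
        show ((1 : H) : Equiv.Perm (Fin n)) '' t = t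
        simp
      mul_smul := fun a b t => by
        show ((a * b : H) : Equiv.Perm (Fin n)) '' t = (a : Equiv.Perm (Fin n)) '' ((b : Equiv.Perm (Fin n)) '' t)
        rw [← Set.image_comp]
        rfl }
  have hst : (stabC (G := Equiv.Perm (Fin n)) (fun i => if i ∈ s then (1 : Fin 3) else 0)).subgroupOf H =
      @stabilizer H (Set (Fin n)) _ act s := by
    ext h
    constructor
    · intro hh
      show (h : Equiv.Perm (Fin n)) '' s = s
      have key : ∀ i, (h : Equiv.Perm (Fin n)) i ∈ s ↔ i ∈ s := by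
        intro i
        have h1 : (if (h : Equiv.Perm (Fin n)) i ∈ s then (1 : Fin 3) else 0) = if i ∈ s then 1 else 0 := hh i
        by_cases h2 : i ∈ s <;> by_cases h3 : (h : Equiv.Perm (Fin n)) i ∈ s <;> simp_all
      ext j
      constructor
      · rintro ⟨i, hi, rfl⟩
        exact (key i).2 hi
      · intro hj
        exact ⟨(h : Equiv.Perm (Fin n))⁻¹ j, (key _).1 (by simpa using hj), by simp⟩
    · intro hh i
      have h1 : (h : Equiv.Perm (Fin n)) '' s = s := hh
      have key : (h : Equiv.Perm (Fin n)) i ∈ s ↔ i ∈ s := by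
        constructor
        · intro h2
          rw [← h1] at h2
          obtain ⟨k, hk, hke⟩ := h2
          rwa [← (h : Equiv.Perm (Fin n)).injective hke]
        · intro h2
          rw [← h1]
          exact ⟨i, h2, rfl⟩
      show (if (h : Equiv.Perm (Fin n)) i ∈ s then (1 : Fin 3) else 0) = if i ∈ s then 1 else 0
      simp only [key]
  have h1 : (stabC (G := Equiv.Perm (Fin n)) (fun i => if i ∈ s then (1 : Fin 3) else 0)).relIndex H =
      (@stabilizer H (Set (Fin n)) _ act s).index := by
    rw [← hst]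
    rfl
  rw [h1, @MulAction.index_stabilizer, ← Nat.card_coe_set_eq]
  refine Nat.card_congr (Equiv.subtypeEquivRight fun t => ?_)
  constructor
  · rintro ⟨h, rfl⟩
    exact ⟨h, h.2, rfl⟩
  · rintro ⟨h, hh, rfl⟩
    exact ⟨⟨h, hh⟩, rfl⟩

/-- The conclusion of S3513. -/
def C3513 : Prop := ∀ (n : ℕ) (H : Subgroup (Equiv.Perm (Fin n))), MulAction.IsPreprimitive H (Fin n) → ∀ (p : ℕ),
  p.Prime → p ∣ Nat.card H →
    ((∀ s : Set (Fin n), ¬ p ∣ Nat.card {t : Set (Fin n) // ∃ h ∈ H, t = h '' s}) →
    ((alternatingGroup (Fin n) ≤ H) ∨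
     (n = 8 ∧ p = 3 ∧ (Nat.card H = 1344 ∨ Nat.card H = 168)) ∨
     (n = 5 ∧ p = 2 ∧ Nat.card H = 10)))

theorem colour_perm (h3513 : C3513) {n p : ℕ} (hp : p.Prime) (hp2 : p ≠ 2) (H : Subgroup (Equiv.Perm (Fin n)))
    (hprim : IsPreprimitive H (Fin n)) (hd : p ∣ Nat.card H) :
    ∃ c : Fin n → Fin 3, p ∣ (stabC (G := Equiv.Perm (Fin n)) c).relIndex H := by
  classical
  by_cases hs : ∀ s : Set (Fin n), ¬ p ∣ Nat.card {t : Set (Fin n) // ∃ h ∈ H, t = h '' s}
  · rcases h3513 n H hprim p hp hd hs with hA | ⟨rfl, rfl, hc⟩ | ⟨-, h2, -⟩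
    · exact colour_alt hp hp2 hd hA
    · exact ⟨_, colour_eight hprim hd hc⟩
    · exact absurd h2 hp2
  · push Not at hs
    obtain ⟨s, hs⟩ := hs
    refine ⟨fun i => if i ∈ s then (1 : Fin 3) else 0, ?_⟩
    rw [relIndex_ind]
    exact hs

theorem prim_of (h3513 : C3513) (p : ℕ) (hp : p.Prime) (hp2 : p ≠ 2) : Prim.{u} p := by
  intro G Ω _ _ _ _ hprim hmv
  let e : Ω ≃ Fin (Nat.card Ω) := Finite.equivFin Ω
  let f : G →* Equiv.Perm (Fin (Nat.card Ω)) := e.permCongrHom.toMonoidHom.comp (toPermHom G Ω)
  have hf : ∀ (g : G) (ω : Ω), e (g • ω) = f g (e ω) := by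
    intro g ω
    show e (g • ω) = e (g • e.symm (e ω))
    rw [Equiv.symm_apply_apply]
  let φ : Ω →ₑ[f.rangeRestrict] Fin (Nat.card Ω) :=
    { toFun := e
      map_smul' := fun g ω => hf g ω }
  have hprim' : IsPreprimitive f.range (Fin (Nat.card Ω)) :=
    IsPreprimitive.of_surjective (f := φ) e.surjective
  have hker : f.ker = (toPermHom G Ω).ker := by
    ext g
    rw [MonoidHom.mem_ker, MonoidHom.mem_ker]
    exact e.permCongrHom.map_eq_one_iff
  have hd : p ∣ Nat.card f.range := by
    rw [← Subgroup.index_ker, hker, Subgroup.index_ker]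
    exact (mv_iff hp).1 hmv
  obtain ⟨c, hc⟩ := colour_perm h3513 hp hp2 f.range hprim' hd
  refine ⟨fun ω => c (e ω), ?_⟩
  have heq : stabC (G := G) (fun ω => c (e ω)) = (stabC (G := Equiv.Perm (Fin (Nat.card Ω))) c).comap f := by
    ext g
    constructor
    · intro hg i
      obtain ⟨ω, rfl⟩ := e.surjective i
      have h1 : c (e (g • ω)) = c (e ω) := hg ω
      rw [hf] at h1
      exact h1
    · intro hg ω
      show c (e (g • ω)) = c (e ω)
      rw [hf]
      exact hg (e ω)
  rw [heq, Subgroup.index_comap]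
  exact hc

theorem factColour_of (h3513 : C3513) : FactColour.{u, v} :=
  factColour_of_prim fun p hp hp2 => prim_of h3513 p hp hp2

end Cfsg.Agent.H334.Four.Colour
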